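import Mathlib
import Cfsg.Agent.H613.SubFus
import Cfsg.Agent.H613.SubDef
import Cfsg.Agent.H632.AbelEight
import Cfsg.Agent.H658.Domin
import Cfsg.Agent.H658.MajorVal

/-!
# 2-blocks with an elementary abelian defect group of order eight all of whose involutions are conjugate, when the
blocks of `C(z)/⟨z⟩` with Klein four defect groups have known characters

* `Fam H M` : every 2-block of `H` with a Klein four defect group consists of four characters of degrees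
  `16, 16, 144, 176` with given Gram matrix on the 2-regular elements, and contains all characters of degree 16;
-/

set_option autoImplicit false
set_option linter.unusedSectionVars false

open Cfsg
open scoped ComplexConjugate

namespace Cfsg.Agent.H645.KKL

open Cfsg.Agent.H613.RegGram Cfsg.Agent.Blocks.Blau Cfsg.Agent.Blocks.Local Cfsg.Agent.Characters
open Cfsg.Agent.H644.CentralQuot

universe u

/-- degrees -/
def dd : Fin 4 → ℕ := ![16, 16, 144, 176]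

/-- signs -/
def ee : Fin 4 → ℤ := ![1, 1, 1, -1]

/-- values at the elements of order five -/
def vv : Fin 4 → ℤ := ![1, 1, -1, 1]

/-- The Gram matrix. -/
noncomputable def gm (i j : Fin 4) : ℂ := (if i = j then 1 else 0) - (ee i : ℂ) * (ee j : ℂ) / 4

/-- The blocks with a Klein four defect group. -/
def Fam (H : Type*) [Group H] [Fintype H] (M : Ideal AlgInt) : Prop :=
  ∀ β : Set (IrrCharacter H), IsPBlock M β → ∀ V : Subgroup H, IsDefectGroup 2 M β V → Nat.card ↥V = 4 →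
    (∀ v ∈ V, v * v = 1) → ∃ ψ : Fin 4 → IrrCharacter H, Function.Injective ψ ∧ β = Set.range ψ ∧
      (∀ i, charDegree (ψ i : H → ℂ) = dd i) ∧
      (∀ i j, rg 2 (ψ i : H → ℂ) (ψ j : H → ℂ) = gm i j) ∧
      (∀ i (y : H), orderOf y = 5 → (ψ i : H → ℂ) y = vv i) ∧
      (∀ φ : IrrCharacter H, charDegree (φ : H → ℂ) = 16 → φ ∈ β)

section quot

variable {C : Type*} [Group C] [Fintype C] {M : Ideal AlgInt} {U : Subgroup C} [U.Normal]

/-- elementary abelian defect groups of order eight -/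
def Eight (M : Ideal AlgInt) (f : Set (IrrCharacter C)) : Prop :=
  ∃ Δ : Subgroup C, IsDefectGroup 2 M f Δ ∧ Nat.card ↥Δ = 8 ∧ ∀ v ∈ Δ, v * v = 1

/-- The four characters of a block of `C`. -/
structure FourC (M : Ideal AlgInt) (f : Set (IrrCharacter C)) (ψ : Fin 4 → IrrCharacter C) : Prop where
  mem : ∀ i, ψ i ∈ f
  deg : ∀ i, (ψ i : C → ℂ) 1 = dd i
  gram : ∀ i j, rg 2 (ψ i : C → ℂ) (ψ j : C → ℂ) = gm i j / 2
  five : ∀ i (y : C), orderOf y = 5 → (ψ i : C → ℂ) y = vv i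
  span : ∀ ξ ∈ f, ∃ m : Fin 4 → ℤ, ∀ g : C, ¬ 2 ∣ orderOf g → (ξ : C → ℂ) g = ∑ i, (m i : ℂ) * (ψ i : C → ℂ) g

theorem defl_klein (hM : IsPModular 2 M) (hU : U ≤ Subgroup.center C) (h2 : Nat.card ↥U = 2)
    {f : Set (IrrCharacter C)} (hf : IsPBlock M f) (h8 : Eight M f) :
    ∃ V : Subgroup (C ⧸ U), IsDefectGroup 2 M (defl U f) V ∧ Nat.card ↥V = 4 ∧ ∀ v ∈ V, v * v = 1 := by
  have : Fact (Nat.Prime 2) := ⟨Nat.prime_two⟩
  have hp : IsPGroup 2 ↥U := IsPGroup.of_card (n := 1) (by rw [h2]; norm_num)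
  obtain ⟨Δ, hΔ, hc, hx⟩ := h8
  obtain ⟨hle, hV⟩ := Cfsg.Agent.H658.isDefectGroup_defl hM hU hp hf hΔ
  refine ⟨_, hV, ?_, ?_⟩
  · have h1 := Subgroup.card_eq_card_quotient_mul_card_subgroup ((QuotientGroup.mk' U).subgroupMap Δ).ker
    rw [Nat.card_congr (QuotientGroup.quotientKerEquivOfSurjective _
      ((QuotientGroup.mk' U).subgroupMap_surjective Δ)).toEquiv, hc] at h1
    have h3 : Nat.card ↥((QuotientGroup.mk' U).subgroupMap Δ).ker = 2 := by
      rw [← h2]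
      refine Nat.card_congr ⟨fun d => ⟨d.1.1, ?_⟩, fun v => ⟨⟨v.1, hle v.2⟩, ?_⟩, fun _ => rfl, fun _ => rfl⟩
      · have h4 := congrArg Subtype.val (MonoidHom.mem_ker.1 d.2)
        exact (QuotientGroup.eq_one_iff _).1 h4
      · rw [MonoidHom.mem_ker]
        apply Subtype.ext
        exact (QuotientGroup.eq_one_iff _).2 v.2
    rw [h3] at h1
    change Nat.card ↥(Δ.map (QuotientGroup.mk' U)) = 4
    omega
  · rintro _ ⟨v, hv, rfl⟩
    rw [← map_mul, hx v hv, map_one]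

theorem exists_fourC (hM : IsPModular 2 M) (hU : U ≤ Subgroup.center C) (h2 : Nat.card ↥U = 2)
    [Fintype (C ⧸ U)] (hF : Fam (C ⧸ U) M) {f : Set (IrrCharacter C)} (hf : IsPBlock M f) (h8 : Eight M f) :
    ∃ ψ : Fin 4 → IrrCharacter C, FourC M f ψ := by
  have : Fact (Nat.Prime 2) := ⟨Nat.prime_two⟩
  have hp : IsPGroup 2 ↥U := IsPGroup.of_card (n := 1) (by rw [h2]; norm_num)
  obtain ⟨V, hV, hc, hx⟩ := defl_klein hM hU h2 hf h8
  obtain ⟨ψ, hinj, hβ, hd, hg, h5, -⟩ := hF _ (isPBlock_defl hM hU hp hf) V hV hc hx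
  refine ⟨fun i => infl U (ψ i), ?_, ?_, ?_, ?_, ?_⟩
  · intro i
    have : ψ i ∈ defl U f := by rw [hβ]; exact ⟨i, rfl⟩
    exact this
  · intro i
    rw [infl_one, apply_one_eq_charDegree, hd]
  · intro i j
    have h1 := rg_infl (p := 2) hU hp (ψ i) (ψ j)
    rw [h2, hg] at h1
    rw [h1]
    push_cast
    ring
  · intro i y hy
    rw [infl_apply]
    apply h5
    have h1 : orderOf (QuotientGroup.mk y : C ⧸ U) ∣ 5 := by
      rw [← hy]
      exact orderOf_map_dvd (QuotientGroup.mk' U) y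
    rcases (Nat.dvd_prime Nat.prime_five).1 h1 with h | h
    · exfalso
      rw [orderOf_eq_one_iff, QuotientGroup.eq_one_iff] at h
      have h3 : orderOf (⟨y, h⟩ : ↥U) ∣ 2 := by rw [← h2]; exact orderOf_dvd_natCard _
      rw [Subgroup.orderOf_mk, hy] at h3
      norm_num at h3
    · exact h
  · intro ξ hξ
    have : Finite (IrrCharacter (C ⧸ U)) := Core.finite_irr
    have : Fintype (defl U f) := Fintype.ofFinite _
    obtain ⟨m, hm⟩ := Cfsg.Agent.H658.exists_int_defl hM hU hp hf hξ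
    let E : Fin 4 ≃ defl U f := Equiv.ofBijective (fun i => ⟨ψ i, by rw [hβ]; exact ⟨i, rfl⟩⟩) (by
      constructor
      · intro i j hij
        exact hinj (congrArg Subtype.val hij)
      · rintro ⟨φ, hφ⟩
        have hφ' := hφ
        rw [hβ] at hφ'
        obtain ⟨i, hi⟩ := hφ'
        exact ⟨i, Subtype.ext hi⟩)
    refine ⟨fun i => m (E i), fun g hg => ?_⟩
    rw [hm g hg, ← E.sum_comp]
    rfl

/-- Uniqueness. -/
theorem eq_of_eight (hM : IsPModular 2 M) (hU : U ≤ Subgroup.center C) (h2 : Nat.card ↥U = 2)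
    [Fintype (C ⧸ U)] (hF : Fam (C ⧸ U) M) {f f' : Set (IrrCharacter C)} (hf : IsPBlock M f) (h8 : Eight M f)
    (hf' : IsPBlock M f') (h8' : Eight M f') : f = f' := by
  have : Fact (Nat.Prime 2) := ⟨Nat.prime_two⟩
  have : M.IsPrime := isPrime_of_isPModular hM
  have hp : IsPGroup 2 ↥U := IsPGroup.of_card (n := 1) (by rw [h2]; norm_num)
  obtain ⟨V, hV, hc, hx⟩ := defl_klein hM hU h2 hf h8
  obtain ⟨ψ, hinj, hβ, hd, -, -, -⟩ := hF _ (isPBlock_defl hM hU hp hf) V hV hc hx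
  obtain ⟨V', hV', hc', hx'⟩ := defl_klein hM hU h2 hf' h8'
  obtain ⟨ψ', -, -, -, -, -, hall⟩ := hF _ (isPBlock_defl hM hU hp hf') V' hV' hc' hx'
  have h1 : ψ 0 ∈ defl U f := by rw [hβ]; exact ⟨0, rfl⟩
  have h3 : ψ 0 ∈ defl U f' := hall _ (hd 0)
  exact Cfsg.Agent.Blocks.Basic.isPBlock_eq_of_mem hf hf' h1 h3

end quot

section gram

open Cfsg.Agent.H613.ContribVal

variable {C : Type*} [Group C] [Fintype C] {M : Ideal AlgInt}

theorem eq_zero_of_rg_self {f : C → ℂ} (h : rg 2 f f = 0) : ∀ y : C, ¬ 2 ∣ orderOf y → f y = 0 := by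
  classical
  intro y hy
  have hc : (Nat.card C : ℂ)⁻¹ ≠ 0 := inv_ne_zero (by exact_mod_cast Nat.card_pos.ne')
  rw [rg_def, Cfsg.Agent.H613.Contrib.pair_eq_sum_filter] at h
  have h3 := (mul_eq_zero.1 h).resolve_left hc
  have h5 : ∑ x : C with ¬ 2 ∣ orderOf x, ‖f x‖ ^ 2 = 0 := by
    have : ((∑ x : C with ¬ 2 ∣ orderOf x, ‖f x‖ ^ 2 : ℝ) : ℂ) = 0 := by
      rw [← h3]
      push_cast
      refine Finset.sum_congr rfl fun x _ => ?_
      rw [Complex.mul_conj, Complex.normSq_eq_norm_sq]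
      push_cast
      rfl
    exact_mod_cast this
  have h6 := (Finset.sum_eq_zero_iff_of_nonneg (fun x _ => by positivity)).1 h5 y (by
    rw [Finset.mem_filter]
    exact ⟨Finset.mem_univ _, hy⟩)
  rwa [pow_eq_zero_iff two_ne_zero, norm_eq_zero] at h6

theorem rg_congr {f f' g g' : C → ℂ} (h : ∀ y : C, ¬ 2 ∣ orderOf y → f y = f' y)
    (h' : ∀ y : C, ¬ 2 ∣ orderOf y → g y = g' y) : rg 2 f g = rg 2 f' g' := by
  classical
  rw [rg_def, rg_def, Cfsg.Agent.H613.Contrib.pair_eq_sum_filter, Cfsg.Agent.H613.Contrib.pair_eq_sum_filter]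
  congr 1
  refine Finset.sum_congr rfl fun y hy => ?_
  rw [h y (Finset.mem_filter.1 hy).2, h' y (Finset.mem_filter.1 hy).2]

theorem rg_sum_smul_right (g : C → ℂ) {ι : Type*} (s : Finset ι) (a : ι → ℂ) (f : ι → C → ℂ) :
    rg 2 g (∑ i ∈ s, a i • f i) = ∑ i ∈ s, conj (a i) * rg 2 g (f i) := by
  rw [← conj_rg, rg_sum_smul_left, map_sum]
  refine Finset.sum_congr rfl fun i _ => ?_
  rw [map_mul, conj_rg]

/-- Linear combinations. -/
noncomputable def comb (ψ : Fin 4 → IrrCharacter C) (u : Fin 4 → ℤ) : C → ℂ :=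
  ∑ i, (u i : ℂ) • (ψ i : C → ℂ)

theorem comb_apply (ψ : Fin 4 → IrrCharacter C) (u : Fin 4 → ℤ) (y : C) :
    comb ψ u y = ∑ i, (u i : ℂ) * (ψ i : C → ℂ) y := by
  unfold comb
  simp [Finset.sum_apply]

variable {f : Set (IrrCharacter C)} {ψ : Fin 4 → IrrCharacter C}

theorem FourC.rg_comb (h : FourC M f ψ) (u u' : Fin 4 → ℤ) :
    rg 2 (comb ψ u) (comb ψ u') = ∑ i, ∑ j, (u i : ℂ) * (u' j : ℂ) * (gm i j / 2) := by
  unfold comb
  rw [rg_sum_smul_left]
  refine Finset.sum_congr rfl fun i _ => ?_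
  rw [rg_sum_smul_right, Finset.mul_sum]
  refine Finset.sum_congr rfl fun j _ => ?_
  rw [h.gram, map_intCast]
  ring

theorem FourC.rel (h : FourC M f ψ) (y : C) (hy : ¬ 2 ∣ orderOf y) :
    (ψ 3 : C → ℂ) y = (ψ 0 : C → ℂ) y + (ψ 1 : C → ℂ) y + (ψ 2 : C → ℂ) y := by
  have h1 := h.rg_comb ee ee
  have h2 : ∑ i, ∑ j, (ee i : ℂ) * (ee j : ℂ) * (gm i j / 2) = 0 := by
    simp [Fin.sum_univ_four, gm, ee]
    norm_num
  rw [h2] at h1
  have h3 := eq_zero_of_rg_self h1 y hy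
  rw [comb_apply] at h3
  simp [Fin.sum_univ_four, ee] at h3
  linear_combination -h3

end gram

section loc

open Cfsg.Agent.H613.SubSys Cfsg.Agent.H613.SubFus Cfsg.Agent.H639 Cfsg.Agent.H649

variable {G : Type u} [Group G] [Finite G] {M : Ideal AlgInt} {B : Set (IrrCharacter G)}

theorem eight_conjIdx (x : G) {b : BrauerPairIdx G} (h : Eight M b.2) : Eight M (conjIdx x b).2 := by
  obtain ⟨Δ, h1, h2, h3⟩ := h
  refine ⟨Δ.map (cenIso (MulAut.conj x) b.1).toMonoidHom, isDefectGroup_blkMap h1, ?_, ?_⟩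
  · rw [← h2]
    exact (Nat.card_congr (Δ.equivMapOfInjective _ (cenIso (MulAut.conj x) b.1).injective).toEquiv).symm
  · rintro _ ⟨v, hv, rfl⟩
    have h4 := congrArg (cenIso (MulAut.conj x) b.1) (h3 v hv)
    rw [map_mul, map_one] at h4
    exact h4

/-- The pairs on the subsections. -/
theorem eight_of_isSubsec [Fact (Nat.Prime 2)] [M.IsPrime] (hM : IsPModular 2 M) {a : BrauerPairIdx G}
    (hmax : IsMaximalBrauerPair 2 M B a.1 a.2) (h8 : Nat.card ↥a.1 = 8) (hx : ∀ v ∈ a.1, v * v = 1) {v : G}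
    {c : BrauerPairIdx G} (hc : IsSubsec 2 M B v c) :
    Eight M c.2 ∧ ∃ x : G, x * v * x⁻¹ ∈ a.1 := by
  have := Fintype.ofFinite G
  have hab : ∀ x ∈ a.1, ∀ y ∈ a.1, x * y = y * x := by
    intro x hx' y hy
    have h1 := hx _ (a.1.mul_mem hx' hy)
    have e1 : x⁻¹ = x := inv_eq_of_mul_eq_one_left (hx x hx')
    have e2 : y⁻¹ = y := inv_eq_of_mul_eq_one_left (hx y hy)
    have e3 : (x * y)⁻¹ = x * y := inv_eq_of_mul_eq_one_left h1
    rw [← e3, mul_inv_rev, e1, e2]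
  obtain ⟨x, hx1, hx2⟩ := exists_fus_of_isSubsec hM hmax hc
  refine ⟨?_, x, hx1⟩
  obtain ⟨f, hf1, hf2, hf3⟩ := Cfsg.Agent.H632.AbelEight.isDefectGroup_bel hM hmax hab hx1
  have h1 : Eight M (bel 2 M a (x * v * x⁻¹)).2 := by
    rw [hf1]
    have hle : a.1 ≤ Subgroup.centralizer ((Subgroup.zpowers (x * v * x⁻¹) : Subgroup G) : Set G) := by
      intro d hd
      rw [Cfsg.Agent.H613.SubSys.centralizer_zpowers, Subgroup.mem_centralizer_singleton_iff]
      exact hab d hd _ hx1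
    refine ⟨_, hf3, ?_, ?_⟩
    · rw [← h8]
      exact Nat.card_congr (Subgroup.subgroupOfEquivOfLe hle).toEquiv
    · intro v hv
      apply Subtype.ext
      exact hx _ hv
  rw [← hx2] at h1
  have h2 := eight_conjIdx x⁻¹ h1
  rwa [conjIdx_inv_conjIdx] at h2

/-- The centralizer. -/
abbrev CC (z : G) : Subgroup G := Subgroup.centralizer ((Subgroup.zpowers z : Subgroup G) : Set G)

/-- The central subgroup. -/
abbrev UU (z : G) : Subgroup ↥(CC z) := (Subgroup.zpowers z).subgroupOf (CC z)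

theorem UU_le (z : G) : UU z ≤ Subgroup.center ↥(CC z) := by
  intro u hu
  rw [Subgroup.mem_center_iff]
  intro c
  apply Subtype.ext
  exact (Subgroup.mem_centralizer_iff.1 c.2 u hu).symm

instance UU_normal (z : G) : (UU z).Normal := by
  refine ⟨fun u hu c => ?_⟩
  have h1 := Subgroup.mem_center_iff.1 (UU_le z hu) c
  rw [h1, mul_inv_cancel_right]
  exact hu

theorem mem_CC {z g : G} : g ∈ CC z ↔ g * z = z * g := by
  change g ∈ Subgroup.centralizer ((Subgroup.zpowers z : Subgroup G) : Set G) ↔ _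
  rw [Cfsg.Agent.H613.SubSys.centralizer_zpowers, Subgroup.mem_centralizer_singleton_iff]

theorem card_UU {z : G} (hz : orderOf z = 2) : Nat.card ↥(UU z) = 2 := by
  have h1 : Subgroup.zpowers z ≤ CC z := by
    rw [Subgroup.zpowers_le]
    exact mem_CC.2 rfl
  rw [Nat.card_congr (Subgroup.subgroupOfEquivOfLe h1).toEquiv, Nat.card_zpowers, hz]

/-- The local data of a block. -/
structure Loc (M : Ideal AlgInt) (B : Set (IrrCharacter G)) (z : G) [Fintype ↥(CC z)] (f : Set (IrrCharacter ↥(CC z)))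
    (ψ : Fin 4 → IrrCharacter ↥(CC z)) : Prop where
  ord : orderOf z = 2
  ind : IsInducedBlock M (CC z) f B
  four : FourC M f ψ
  uniq : ∀ c, IsInducedBlock M (CC z) c B → c = f
  def3 : blockDefect 2 f = 3
  major : blockDefect 2 f = blockDefect 2 B
  other : ∀ v (c : BrauerPairIdx G), IsSubsec 2 M B v c → v ≠ 1 → ∃ x, x * z * x⁻¹ = v

theorem exists_loc (hM : IsPModular 2 M) (hB : IsPBlock M B) {D : Subgroup G} (hD : IsDefectGroup 2 M B D)
    (h8 : Nat.card ↥D = 8) (hx : ∀ v ∈ D, v * v = 1) {z : G} (hz : z ∈ D) (hz1 : z ≠ 1)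
    (hpure : ∀ d ∈ D, d ≠ 1 → ∃ x : G, x * z * x⁻¹ = d) [Fintype ↥(CC z)] [Fintype (↥(CC z) ⧸ UU z)]
    (hF : Fam (↥(CC z) ⧸ UU z) M) :
    ∃ (f : Set (IrrCharacter ↥(CC z))) (ψ : Fin 4 → IrrCharacter ↥(CC z)), Loc M B z f ψ := by
  have : Fact (Nat.Prime 2) := ⟨Nat.prime_two⟩
  have : M.IsPrime := isPrime_of_isPModular hM
  have := Fintype.ofFinite G
  obtain ⟨e, he⟩ := Cfsg.Agent.H644.exists_pair_of_le_isDefectGroup hM hB hD le_rfl
  have hmax0 := Cfsg.Agent.H644.isMaximalBrauerPair_of_isDefectGroup hM he hD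
  obtain ⟨a, ha1, hmax⟩ : ∃ a : BrauerPairIdx G, a.1 = D ∧ IsMaximalBrauerPair 2 M B a.1 a.2 :=
    ⟨⟨D, e⟩, rfl, hmax0⟩
  have h8' : Nat.card ↥a.1 = 8 := by rw [ha1]; exact h8
  have hx' : ∀ v ∈ a.1, v * v = 1 := by rw [ha1]; exact hx
  have hord : orderOf z = 2 := orderOf_eq_prime (by rw [pow_two]; exact hx z hz) hz1
  have hza : z ∈ a.1 := by rw [ha1]; exact hz
  have hsub := isSubsec_bel hM hmax hza
  obtain ⟨f, hf⟩ : ∃ f, bel 2 M a z = ⟨Subgroup.zpowers z, f⟩ := ⟨_, rfl⟩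
  rw [hf] at hsub
  have hind : IsInducedBlock M (CC z) f B := hsub.ind
  have hE : Eight M f := (eight_of_isSubsec hM hmax h8' hx' hsub).1
  obtain ⟨ψ, hψ⟩ := exists_fourC hM (UU_le z) (card_UU hord) hF hind.1 hE
  have hd3 : blockDefect 2 f = 3 := by
    obtain ⟨Δ, h1, h2, -⟩ := hE
    have h3 := Cfsg.Agent.S0908.result 2 M hM f hind.1 Δ h1
    rw [h2] at h3
    exact (Nat.pow_right_injective le_rfl (by rw [← h3]; norm_num : (2 : ℕ) ^ 3 = 2 ^ blockDefect 2 f)).symm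
  have hd3' : blockDefect 2 B = 3 := by
    have h3 := Cfsg.Agent.S0908.result 2 M hM B hB D hD
    rw [h8] at h3
    exact (Nat.pow_right_injective le_rfl (by rw [← h3]; norm_num : (2 : ℕ) ^ 3 = 2 ^ blockDefect 2 B)).symm
  refine ⟨f, ψ, hord, hind, hψ, ?_, hd3, by rw [hd3, hd3'], ?_⟩
  · intro c hc
    have h1 : IsSubsec 2 M B z ⟨Subgroup.zpowers z, c⟩ := ⟨rfl, ⟨1, by rw [hord, pow_one]⟩, hc⟩
    exact eq_of_eight hM (UU_le z) (card_UU hord) hF hc.1 (eight_of_isSubsec hM hmax h8' hx' h1).1 hind.1 hE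
  · intro v c hc hv
    obtain ⟨-, x, hx1⟩ := eight_of_isSubsec hM hmax h8' hx' hc
    have hx2 : x * v * x⁻¹ ≠ 1 := by
      intro h
      apply hv
      have := congrArg (fun g => x⁻¹ * g * x) h
      simpa [mul_assoc] using this
    rw [ha1] at hx1
    obtain ⟨y, hy⟩ := hpure _ hx1 hx2
    refine ⟨x⁻¹ * y, ?_⟩
    calc x⁻¹ * y * z * (x⁻¹ * y)⁻¹ = x⁻¹ * (y * z * y⁻¹) * x := by group
      _ = v := by rw [hy]; group

section expand

open Cfsg.Agent.H613.ContribVal Cfsg.Agent.H613.Contrib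

variable {z : G} [Fintype ↥(CC z)] {f : Set (IrrCharacter ↥(CC z))} {ψ : Fin 4 → IrrCharacter ↥(CC z)}

theorem CC_eq (z : G) : CC z = Subgroup.centralizer ({z} : Set G) := Cfsg.Agent.H613.SubSys.centralizer_zpowers z

theorem Loc.wt_zero (h : Loc M B z f ψ) (hM : IsPModular 2 M) (hB : IsPBlock M B) {χ : IrrCharacter G} (hχ : χ ∈ B)
    {c : Set (IrrCharacter ↥(CC z))} (hc : IsPBlock M c) (hcf : c ≠ f) {η : IrrCharacter ↥(CC z)} (hη : η ∈ c) :
    wt 2 z (χ : G → ℂ) (η : ↥(CC z) → ℂ) = 0 := by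
  have : Fact (Nat.Prime 2) := ⟨Nat.prime_two⟩
  have h1 := W_eq_zero (b := (⟨Subgroup.zpowers z, c⟩ : BrauerPairIdx G)) hM ⟨1, by rw [h.ord, pow_one]⟩ rfl hB hc
    (fun hi => hcf (h.uniq c hi)) hχ hη
  rwa [W_eq] at h1

/-- The values at the section of `z`. -/
theorem Loc.expand4 (h : Loc M B z f ψ) (hM : IsPModular 2 M) (hB : IsPBlock M B) {χ : IrrCharacter G} (hχ : χ ∈ B) :
    ∃ u : Fin 4 → ℤ, ∀ y : ↥(CC z), ¬ 2 ∣ orderOf y → (χ : G → ℂ) (z * y) = comb ψ u y := by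
  classical
  have : Fact (Nat.Prime 2) := ⟨Nat.prime_two⟩
  have : M.IsPrime := isPrime_of_isPModular hM
  have : Finite (IrrCharacter ↥(CC z)) := Core.finite_irr
  have : Fintype (IrrCharacter ↥(CC z)) := Fintype.ofFinite _
  have hz2 : z ^ 2 = 1 := by rw [← h.ord, pow_orderOf_eq_one]
  obtain ⟨n, e, hE⟩ := exists_exp (CC_eq z) hz2
  have hf := h.ind.1
  -- the part outside `f` vanishes on the regular elements
  let g : ↥(CC z) → ℂ := ∑ ξ : IrrCharacter ↥(CC z) with ξ ∉ f, ((n χ ξ : ℂ) * e ξ) • (ξ : ↥(CC z) → ℂ)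
  have hgη : ∀ η : IrrCharacter ↥(CC z), rg 2 g (η : ↥(CC z) → ℂ) = 0 := by
    intro η
    have h1 : rg 2 g (η : ↥(CC z) → ℂ) =
        ∑ ξ : IrrCharacter ↥(CC z) with ξ ∉ f, ((n χ ξ : ℂ) * e ξ) * rg 2 (ξ : ↥(CC z) → ℂ) (η : ↥(CC z) → ℂ) :=
      rg_sum_smul_left _ _ _ _ _
    rw [h1]
    by_cases hη : η ∈ f
    · refine Finset.sum_eq_zero fun ξ hξ => ?_
      rw [rg_eq_zero' hM hf (Finset.mem_filter.1 hξ).2 hη, mul_zero]
    · have hc := Cfsg.Agent.Blocks.Basic.isPBlock_blockOf (M := M) η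
      have hηc : η ∈ blockOf M (η : ↥(CC z) → ℂ) := Cfsg.Agent.Blocks.Basic.mem_blockOf_self η
      set c := blockOf M (η : ↥(CC z) → ℂ) with hcdef
      have hcf : c ≠ f := fun h' => hη (h' ▸ hηc)
      have h2 := h.wt_zero hM hB hχ hc hcf hηc
      have h3 := wt_eq_sum hM hE hc χ 1 hηc
      rw [pow_one, h2] at h3
      rw [Finset.sum_filter]
      rw [← Finset.sum_subtype (s := Finset.univ.filter (· ∈ c)) (by simp)
        (fun ξ : IrrCharacter ↥(CC z) => (n χ ξ : ℂ) * e ξ ^ 1 * rg 2 (ξ : ↥(CC z) → ℂ) (η : ↥(CC z) → ℂ)),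
        Finset.sum_filter] at h3
      refine Eq.trans (Finset.sum_congr rfl fun ξ _ => ?_) h3.symm
      by_cases h4 : ξ ∈ c
      · have h5 : ξ ∉ f := fun h6 => hcf (Cfsg.Agent.Blocks.Basic.isPBlock_eq_of_mem hc hf h4 h6)
        rw [if_pos h5, if_pos h4, pow_one]
      · rw [if_neg h4]
        by_cases h5 : ξ ∉ f
        · rw [if_pos h5, rg_eq_zero' hM hc h4 hηc, mul_zero]
        · rw [if_neg h5]
  have hg0 : ∀ y : ↥(CC z), ¬ 2 ∣ orderOf y → g y = 0 := by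
    apply eq_zero_of_rg_self
    have h1 : rg 2 g g = ∑ ξ : IrrCharacter ↥(CC z) with ξ ∉ f,
        conj ((n χ ξ : ℂ) * e ξ) * rg 2 g (ξ : ↥(CC z) → ℂ) := rg_sum_smul_right _ _ _ _
    rw [h1]
    exact Finset.sum_eq_zero fun ξ _ => by rw [hgη, mul_zero]
  have hee : ∀ ξ, ∃ s : ℤ, e ξ = s := by
    intro ξ
    have h0 : (e ξ - 1) * (e ξ + 1) = 0 := by linear_combination hE.root ξ
    rcases mul_eq_zero.1 h0 with h1 | h1
    · exact ⟨1, by push_cast; linear_combination h1⟩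
    · exact ⟨-1, by push_cast; linear_combination h1⟩
  choose s hs using hee
  choose! m hm using h.four.span
  refine ⟨fun i => ∑ ξ : IrrCharacter ↥(CC z) with ξ ∈ f, (n χ ξ : ℤ) * s ξ * m ξ i, fun y hy => ?_⟩
  have h1 := hE.expand χ 1 y
  rw [pow_one] at h1
  rw [h1, ← Finset.sum_filter_add_sum_filter_not Finset.univ (· ∈ f)]
  have h2 : ∑ ξ : IrrCharacter ↥(CC z) with ξ ∉ f, (n χ ξ : ℂ) * e ξ ^ 1 * (ξ : ↥(CC z) → ℂ) y = 0 := by
    rw [← hg0 y hy]
    simp only [g, Finset.sum_apply, Pi.smul_apply, smul_eq_mul, pow_one]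
  rw [h2, add_zero, comb_apply]
  push_cast
  simp only [Finset.sum_mul]
  rw [Finset.sum_comm]
  refine Finset.sum_congr rfl fun ξ hξ => ?_
  rw [hm ξ (Finset.mem_filter.1 hξ).2 y hy, pow_one, hs, Finset.mul_sum]
  refine Finset.sum_congr rfl fun i _ => ?_
  ring

/-- The values at the section of `z`, in terms of three characters. -/
theorem Loc.expand (h : Loc M B z f ψ) (hM : IsPModular 2 M) (hB : IsPBlock M B) {χ : IrrCharacter G} (hχ : χ ∈ B) :
    ∃ a b c : ℤ, ∀ y : ↥(CC z), ¬ 2 ∣ orderOf y → (χ : G → ℂ) (z * y) = comb ψ ![a, b, c, 0] y := by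
  obtain ⟨u, hu⟩ := h.expand4 hM hB hχ
  refine ⟨u 0 + u 3, u 1 + u 3, u 2 + u 3, fun y hy => ?_⟩
  rw [hu y hy, comb_apply, comb_apply]
  have h1 := h.four.rel y hy
  simp [Fin.sum_univ_four, h1]
  ring

end expand

end loc

end Cfsg.Agent.H645.KKL
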