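import Mathlib
import Cfsg.Agent.H645.KKL.Central
import Cfsg.Agent.H645.KKL.Klein4

/-!
# The rows of the generalised decomposition matrix
-/

set_option autoImplicit false
set_option linter.unusedSectionVars false
set_option maxHeartbeats 400000

open Cfsg
open scoped ComplexConjugate

namespace Cfsg.Agent.H645.KKL

open Cfsg.Agent.H613.RegGram Cfsg.Agent.Blocks.Blau Cfsg.Agent.Blocks.Local Cfsg.Agent.Characters
open Cfsg.Agent.H644.CentralQuot Cfsg.Agent.H613.ContribVal Cfsg.Agent.H613.Contrib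
open Cfsg.Agent.H613.SubSys Cfsg.Agent.H613.SubFus Cfsg.Agent.H639 Cfsg.Agent.H649

universe u

variable {G : Type u} [Group G] [Finite G] {M : Ideal AlgInt} {B : Set (IrrCharacter G)}
variable {z : G} [Fintype ↥(CC z)] {f : Set (IrrCharacter ↥(CC z))} {ψ : Fin 4 → IrrCharacter ↥(CC z)}

/-- the form -/
def qf (a b c : ℤ) : ℤ := 3 * (a * a + b * b + c * c) - 2 * (a * b + a * c + b * c)

theorem FourC.rg_self {C : Type*} [Group C] [Fintype C] {f : Set (IrrCharacter C)} {ψ : Fin 4 → IrrCharacter C}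
    (h : FourC M f ψ) (a b c : ℤ) :
    rg 2 (comb ψ ![a, b, c, 0]) (comb ψ ![a, b, c, 0]) = (qf a b c : ℂ) / 8 := by
  rw [h.rg_comb]
  simp [Fin.sum_univ_four, gm, ee, qf]
  ring

theorem FourC.rg_pair {C : Type*} [Group C] [Fintype C] {f : Set (IrrCharacter C)} {ψ : Fin 4 → IrrCharacter C}
    (h : FourC M f ψ) (u : Fin 3 → ℤ) (j : Fin 3) :
    rg 2 (comb ψ ![u 0, u 1, u 2, 0]) (ψ j.castSucc : C → ℂ) + rg 2 (comb ψ ![u 0, u 1, u 2, 0]) (ψ 3 : C → ℂ) =
      (u j : ℂ) / 2 := by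
  unfold comb
  rw [rg_sum_smul_left, rg_sum_smul_left]
  simp only [h.gram]
  fin_cases j <;> simp [Fin.sum_univ_four, gm, ee] <;> ring

theorem Loc.isClassFunction (h : Loc M B z f ψ) (χ : IrrCharacter G) :
    IsClassFunction ↥(CC z) (fun y : ↥(CC z) => (χ : G → ℂ) (z * y)) :=
  isClassFunction_mul (CC_eq z) (Core.isIrr_isClassFunction χ.2)

theorem Loc.gram (h : Loc M B z f ψ) (hM : IsPModular 2 M) (hB : IsPBlock M B) [Fintype ↥B] :
    ∃ u : ↥B → Fin 3 → ℤ,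
      (∀ (χ : ↥B) (y : ↥(CC z)), ¬ 2 ∣ orderOf y →
        ((χ : IrrCharacter G) : G → ℂ) (z * y) = comb ψ ![u χ 0, u χ 1, u χ 2, 0] y) ∧
      (∀ j k : Fin 3, ∑ χ, u χ j * u χ k = if j = k then 4 else 2) ∧
      (∀ (j : Fin 3) (s : G), ¬ 2 ∣ orderOf s → ∑ χ : ↥B, (u χ j : ℂ) * conj (((χ : IrrCharacter G) : G → ℂ) s) = 0) := by
  classical
  have : Fact (Nat.Prime 2) := ⟨Nat.prime_two⟩
  have key : ∀ χ : ↥B, ∃ u : Fin 3 → ℤ, ∀ y : ↥(CC z), ¬ 2 ∣ orderOf y →
      ((χ : IrrCharacter G) : G → ℂ) (z * y) = comb ψ ![u 0, u 1, u 2, 0] y := by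
    intro χ
    obtain ⟨a, b, c, h1⟩ := h.expand hM hB χ.2
    exact ⟨![a, b, c], h1⟩
  choose u hu using key
  let b₀ : BrauerPairIdx G := ⟨Subgroup.zpowers z, f⟩
  have hz2 : ∃ k : ℕ, orderOf z = 2 ^ k := ⟨1, by rw [h.ord, pow_one]⟩
  have hz1 : z ≠ 1 := by
    intro h1
    have := h.ord
    rw [h1, orderOf_one] at this
    omega
  have hsub : IsSubsec 2 M B z b₀ := ⟨rfl, hz2, h.ind⟩
  have hW : ∀ (χ : ↥B) (j : Fin 3), W 2 z b₀ ((χ : IrrCharacter G) : G → ℂ) (ψ j.castSucc) +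
      W 2 z b₀ ((χ : IrrCharacter G) : G → ℂ) (ψ 3) = (u χ j : ℂ) / 2 := by
    intro χ j
    have e1 : ∀ i, W 2 z b₀ ((χ : IrrCharacter G) : G → ℂ) (ψ i) =
        rg 2 (comb ψ ![u χ 0, u χ 1, u χ 2, 0]) (ψ i : ↥(CC z) → ℂ) := by
      intro i
      rw [W_eq, wt_def]
      exact rg_congr (fun y hy => hu χ y hy) (fun _ _ => rfl)
    rw [e1, e1, h.four.rg_pair (u χ) j]
  refine ⟨u, hu, ?_, ?_⟩
  · intro j k
    have h1 : ∑ χ : ↥B, (W 2 z b₀ ((χ : IrrCharacter G) : G → ℂ) (ψ j.castSucc) +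
          W 2 z b₀ ((χ : IrrCharacter G) : G → ℂ) (ψ 3)) *
        conj (W 2 z b₀ ((χ : IrrCharacter G) : G → ℂ) (ψ k.castSucc) +
          W 2 z b₀ ((χ : IrrCharacter G) : G → ℂ) (ψ 3)) =
        (gm k.castSucc j.castSucc + gm 3 j.castSucc + gm k.castSucc 3 + gm 3 3) / 2 := by
      have e2 : ∀ i l : Fin 4, ∑ χ : ↥B, W 2 z b₀ ((χ : IrrCharacter G) : G → ℂ) (ψ i) *
          conj (W 2 z b₀ ((χ : IrrCharacter G) : G → ℂ) (ψ l)) = gm l i / 2 := by
        intro i l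
        have e3 := hsub.sum_W_mul_conj_W hM (h.four.mem i) (h.four.mem l)
        rw [e3]
        exact h.four.gram l i
      have e4 : ∀ χ : ↥B, (W 2 z b₀ ((χ : IrrCharacter G) : G → ℂ) (ψ j.castSucc) +
          W 2 z b₀ ((χ : IrrCharacter G) : G → ℂ) (ψ 3)) *
        conj (W 2 z b₀ ((χ : IrrCharacter G) : G → ℂ) (ψ k.castSucc) +
          W 2 z b₀ ((χ : IrrCharacter G) : G → ℂ) (ψ 3)) =
          W 2 z b₀ ((χ : IrrCharacter G) : G → ℂ) (ψ j.castSucc) *
            conj (W 2 z b₀ ((χ : IrrCharacter G) : G → ℂ) (ψ k.castSucc)) +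
          W 2 z b₀ ((χ : IrrCharacter G) : G → ℂ) (ψ 3) *
            conj (W 2 z b₀ ((χ : IrrCharacter G) : G → ℂ) (ψ k.castSucc)) +
          W 2 z b₀ ((χ : IrrCharacter G) : G → ℂ) (ψ j.castSucc) *
            conj (W 2 z b₀ ((χ : IrrCharacter G) : G → ℂ) (ψ 3)) +
          W 2 z b₀ ((χ : IrrCharacter G) : G → ℂ) (ψ 3) *
            conj (W 2 z b₀ ((χ : IrrCharacter G) : G → ℂ) (ψ 3)) := by
        intro χ
        rw [map_add]
        ring
      rw [Finset.sum_congr rfl fun χ _ => e4 χ, Finset.sum_add_distrib, Finset.sum_add_distrib,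
        Finset.sum_add_distrib, e2, e2, e2, e2]
      ring
    have h2 : ((∑ χ, u χ j * u χ k : ℤ) : ℂ) = 4 * ((gm k.castSucc j.castSucc + gm 3 j.castSucc + gm k.castSucc 3 + gm 3 3) / 2) := by
      rw [← h1, Finset.mul_sum]
      push_cast
      refine Finset.sum_congr rfl fun χ _ => ?_
      rw [hW, hW, map_div₀, map_intCast]
      have : conj (2 : ℂ) = 2 := Complex.conj_ofNat 2
      rw [this]
      ring
    have h3 : (4 * ((gm k.castSucc j.castSucc + gm 3 j.castSucc + gm k.castSucc 3 + gm 3 3) / 2) : ℂ) =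
        (((if j = k then 4 else 2 : ℤ)) : ℂ) := by
      have he : ∀ j : Fin 3, ee j.castSucc = 1 := by decide
      have he3 : ee 3 = -1 := rfl
      have hn : ∀ j : Fin 3, j.castSucc ≠ (3 : Fin 4) := by decide
      have e5 : gm k.castSucc j.castSucc = (if j = k then 1 else 0) - 1 / 4 := by
        unfold gm
        rw [he, he]
        by_cases hjk : j = k
        · rw [if_pos hjk, if_pos (by rw [hjk])]
          push_cast
          ring
        · rw [if_neg hjk, if_neg (fun h' => hjk (Fin.castSucc_injective _ h').symm)]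
          push_cast
          ring
      have e6 : ∀ j : Fin 3, gm 3 j.castSucc = 1 / 4 := by
        intro j
        unfold gm
        rw [he, he3, if_neg (hn j).symm]
        push_cast
        ring
      have e7 : ∀ j : Fin 3, gm j.castSucc 3 = 1 / 4 := by
        intro j
        unfold gm
        rw [he, he3, if_neg (hn j)]
        push_cast
        ring
      have e8 : gm 3 3 = 3 / 4 := by
        unfold gm
        rw [he3, if_pos rfl]
        push_cast
        ring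
      rw [e5, e6, e7, e8]
      by_cases hjk : j = k
      · rw [if_pos hjk, if_pos hjk]
        push_cast
        ring
      · rw [if_neg hjk, if_neg hjk]
        push_cast
        ring
    exact Int.cast_injective (α := ℂ) (h2.trans h3)
  · intro j s hs
    have e1 : ∀ i, ∑ χ : ↥B, W 2 z b₀ ((χ : IrrCharacter G) : G → ℂ) (ψ i) *
        conj (((χ : IrrCharacter G) : G → ℂ) s) = 0 := fun i =>
      sum_W_mul_conj_apply (b := b₀) hM hB hz2 hz1 rfl (ψ i) hs
    have e2 : ∑ χ : ↥B, (W 2 z b₀ ((χ : IrrCharacter G) : G → ℂ) (ψ j.castSucc) +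
          W 2 z b₀ ((χ : IrrCharacter G) : G → ℂ) (ψ 3)) * conj (((χ : IrrCharacter G) : G → ℂ) s) = 0 := by
      simp only [add_mul]
      rw [Finset.sum_add_distrib, e1, e1, add_zero]
    have e3 : ∑ χ : ↥B, (u χ j : ℂ) * conj (((χ : IrrCharacter G) : G → ℂ) s) =
        2 * ∑ χ : ↥B, (W 2 z b₀ ((χ : IrrCharacter G) : G → ℂ) (ψ j.castSucc) +
          W 2 z b₀ ((χ : IrrCharacter G) : G → ℂ) (ψ 3)) * conj (((χ : IrrCharacter G) : G → ℂ) s) := by
      rw [Finset.mul_sum]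
      refine Finset.sum_congr rfl fun χ _ => ?_
      rw [hW]
      ring
    rw [e3, e2, mul_zero]

/-- The contribution. -/
theorem Loc.contr_eq (h : Loc M B z f ψ) (hM : IsPModular 2 M) (hB : IsPBlock M B) [Fintype ↥f] {χ : IrrCharacter G}
    (hχ : χ ∈ B) {a b c : ℤ}
    (hu : ∀ y : ↥(CC z), ¬ 2 ∣ orderOf y → (χ : G → ℂ) (z * y) = comb ψ ![a, b, c, 0] y) :
    contr 2 z f (χ : G → ℂ) (χ : G → ℂ) = (qf a b c : ℂ) / 8 := by
  classical
  have : Fact (Nat.Prime 2) := ⟨Nat.prime_two⟩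
  have : M.IsPrime := isPrime_of_isPModular hM
  have : Finite (IrrCharacter ↥(CC z)) := Core.finite_irr
  have : Fintype (IrrCharacter ↥(CC z)) := Fintype.ofFinite _
  have h1 := rg_eq_sum (p := 2) (h.isClassFunction χ) (h.isClassFunction χ)
  rw [rg_congr hu hu, h.four.rg_self] at h1
  rw [contr_def, h1]
  symm
  refine sum_eq_sum_coe f _ fun ζ hζ => ?_
  have hc := Cfsg.Agent.Blocks.Basic.isPBlock_blockOf (M := M) ζ
  have hζc : ζ ∈ blockOf M (ζ : ↥(CC z) → ℂ) := Cfsg.Agent.Blocks.Basic.mem_blockOf_self ζ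
  have hcf : blockOf M (ζ : ↥(CC z) → ℂ) ≠ f := fun h' => hζ (h' ▸ hζc)
  have h2 := h.wt_zero hM hB hχ hc hcf hζc
  rw [wt_def] at h2
  rw [h2, zero_mul]

theorem Loc.sys (h : Loc M B z f ψ) (hM : IsPModular 2 M) (hB : IsPBlock M B) :
    IsSys 2 M B (fun _ : Unit => z) (fun _ : Unit => (⟨Subgroup.zpowers z, f⟩ : BrauerPairIdx G)) where
  sub _ := ⟨rfl, ⟨1, by rw [h.ord, pow_one]⟩, h.ind⟩
  ne_one _ := by
    intro h1
    have := h.ord
    rw [h1, orderOf_one] at this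
    omega
  inj _ _ _ _ _ := rfl
  surj v c hc hv := by
    have : Fact (Nat.Prime 2) := ⟨Nat.prime_two⟩
    obtain ⟨x, hx⟩ := h.other v c hc hv
    refine ⟨(), x, hx, ?_⟩
    have h1 : IsSubsec 2 M B z (conjIdx x⁻¹ c) := by
      obtain ⟨h2, h3⟩ := (isSubsec_iff hM hB).1 hc
      rw [isSubsec_iff hM hB]
      obtain ⟨Q, f'⟩ := c
      simp only at h2 h3
      rw [conjIdx_mk]
      refine ⟨?_, (isBrauerPairOf_conj_iff B Q x⁻¹ f').2 h3⟩
      change Q.map (MulAut.conj x⁻¹).toMonoidHom = Subgroup.zpowers z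
      rw [h2, MonoidHom.map_zpowers]
      congr 1
      change x⁻¹ * v * (x⁻¹)⁻¹ = z
      rw [← hx]
      group
    obtain ⟨d, hd⟩ : ∃ d, conjIdx x⁻¹ c = d := ⟨_, rfl⟩
    rw [hd] at h1
    have h4 : c = conjIdx x d := by rw [← hd, conjIdx_conjIdx_inv]
    obtain ⟨Q, f'⟩ := d
    have hQ : Q = Subgroup.zpowers z := h1.fst
    subst hQ
    have h5 : f' = f := h.uniq f' h1.ind
    subst h5
    exact h4.symm

/-- The form is less than eight. -/
theorem Loc.qf_lt (h : Loc M B z f ψ) (hM : IsPModular 2 M) (hB : IsPBlock M B) {χ : IrrCharacter G}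
    (hχ : χ ∈ B) {a b c : ℤ}
    (hu : ∀ y : ↥(CC z), ¬ 2 ∣ orderOf y → (χ : G → ℂ) (z * y) = comb ψ ![a, b, c, 0] y) : qf a b c < 8 := by
  classical
  have : Fact (Nat.Prime 2) := ⟨Nat.prime_two⟩
  have := Fintype.ofFinite G
  have : Finite (IrrCharacter ↥(CC z)) := Core.finite_irr
  have : Finite (IrrCharacter G) := Core.finite_irr
  have : Fintype ↥f := Fintype.ofFinite _
  have : Fintype ↥B := Fintype.ofFinite _
  have h1 := (h.sys hM hB).rg_add_sum hM hB hχ hχ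
  rw [if_pos rfl] at h1
  simp only [Finset.univ_unique, Finset.sum_singleton] at h1
  rw [Cn_eq] at h1
  rw [h.contr_eq hM hB hχ hu] at h1
  obtain ⟨r, hr0, hr, hr1⟩ := rg_self_eq (χ : G → ℂ)
  rw [hr] at h1
  have h2 : r + (qf a b c : ℝ) / 8 = 1 := by exact_mod_cast h1
  have h3 : r ≠ 0 := by
    intro h4
    have h5 := hr1 h4
    rw [apply_one_eq_charDegree] at h5
    exact charDegree_ne_zero χ (by exact_mod_cast h5)
  have h4 : 0 < r := lt_of_le_of_ne hr0 (Ne.symm h3)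
  have h5 : (qf a b c : ℝ) < 8 := by linarith
  exact_mod_cast h5

theorem Loc.qf_ne (h : Loc M B z f ψ) (hM : IsPModular 2 M) (hB : IsPBlock M B) {χ : IrrCharacter G}
    (hχ : χ ∈ B) {a b c : ℤ}
    (hu : ∀ y : ↥(CC z), ¬ 2 ∣ orderOf y → (χ : G → ℂ) (z * y) = comb ψ ![a, b, c, 0] y) : qf a b c ≠ 0 := by
  classical
  have : Fact (Nat.Prime 2) := ⟨Nat.prime_two⟩
  have := Fintype.ofFinite G
  have : Finite (IrrCharacter ↥(CC z)) := Core.finite_irr
  have : Fintype ↥f := Fintype.ofFinite _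
  intro h0
  apply Cfsg.Agent.H658.contr_self_ne_zero hM ⟨1, by rw [h.ord, pow_one]⟩ (CC_eq z) h.ind h.major hχ
  rw [h.contr_eq hM hB hχ hu, h0]
  simp

/-- The form is odd if and only if the height is zero. -/
theorem Loc.qf_odd (h : Loc M B z f ψ) (hM : IsPModular 2 M) (hB : IsPBlock M B) {χ : IrrCharacter G}
    (hχ : χ ∈ B) {a b c : ℤ}
    (hu : ∀ y : ↥(CC z), ¬ 2 ∣ orderOf y → (χ : G → ℂ) (z * y) = comb ψ ![a, b, c, 0] y) :
    blockHeight 2 B (χ : G → ℂ) = 0 ↔ ¬ (2 : ℤ) ∣ qf a b c := by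
  classical
  have : Fact (Nat.Prime 2) := ⟨Nat.prime_two⟩
  have := Fintype.ofFinite G
  have : Finite (IrrCharacter ↥(CC z)) := Core.finite_irr
  have : Fintype ↥f := Fintype.ofFinite _
  have hz2 : ∃ k : ℕ, orderOf z = 2 ^ k := ⟨1, by rw [h.ord, pow_one]⟩
  have h8 : ((2 : ℕ) : ℂ) ^ blockDefect 2 B * contr 2 z f (χ : G → ℂ) (χ : G → ℂ) = ((qf a b c : ℤ) : ℂ) := by
    rw [← h.major, h.def3, h.contr_eq hM hB hχ hu]
    push_cast
    ring
  constructor
  · intro h0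
    obtain ⟨w, hw1, hw2, hw3⟩ := Cfsg.Agent.H658.exists_unit_of_height_zero hM hz2 (CC_eq z) h.ind h.major hχ hχ h0
    rw [h8, h0, pow_zero, one_mul] at hw3
    rw [← hw3] at hw2
    intro h9
    exact hw2 ((memLocalIdeal_intCast_iff hM _).2 (by exact_mod_cast h9))
  · intro h9
    by_contra h0
    obtain ⟨w, hw1, hw3⟩ := Cfsg.Agent.H658.exists_nonunit_of_height_pos hM hz2 (CC_eq z) h.ind h.major hχ hχ h0
    rw [h8] at hw3
    apply h9
    have : M.IsPrime := isPrime_of_isPModular hM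
    have h10 : MemLocalIdeal M ((qf a b c : ℤ) : ℂ) := by
      rw [hw3]
      exact memLocalIdeal_mul_left (memLocalRing_pow (memLocalRing_natCast 2) _) hw1
    exact_mod_cast (memLocalIdeal_intCast_iff hM _).1 h10

end Cfsg.Agent.H645.KKL
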