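import Mathlib
import Cfsg.Agent.CTwoTab.Co3
import Cfsg.Agent.H613.KKL.Defs
import Cfsg.Agent.H613.RegGram

set_option autoImplicit false

open Cfsg Subgroup
open Cfsg.Agent.H613.KKL
open Cfsg.Agent.SporRec.Co3.Chain Cfsg.Agent.SporRec.Co3.Ident
open Cfsg.Agent.H613.RegGram (rg)

namespace Cfsg.Agent.H645.KKL.Stub

theorem Q1 {D : Subgroup G3} {x : G3} (h : Cfg0 D x) {d : G3} (hd : d ∈ D) : ¬ IsConj Z d := sorry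

/-- values at the central involution of the seven rows `100 010 001 111 110 101 011` -/
def rr : Fin 7 → ℤ := ![16, 16, 144, 176, 32, 160, 160]

/-- values at an element of order 10 -/
def tt : Fin 7 → ℤ := ![1, 1, -1, 1, 2, 0, 0]

theorem Q2 (s v : Fin 7 → ℤ) (n : ℤ) (hT : ∀ i, (1024 : ℤ) ∣ s i + rr i * n) (h7 : ∀ i < 4, ¬ (256 : ℤ) ∣ s i)
    (hdiv : ∀ i, s i ∣ 495766656000) (hsq : ∀ i, s i * s i < 495766656000)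
    (h11 : ∀ i, ∃ w : ℤ, w * s i = 2608200 * rr i ∧ (11 : ℤ) ∣ (w * w - 1) * s i)
    (h23 : ∀ i, (23 : ℤ) ∣ s i ∨ ∃ e : ℤ, (e = 1 ∨ e = -1 ∨ e = 11 ∨ e = -11) ∧ (23 : ℤ) ∣ s i - e)
    (r1 : s 0 + s 3 + s 4 + s 5 = 0) (r2 : s 1 + s 3 + s 4 + s 6 = 0) (r3 : s 2 + s 3 + s 5 + s 6 = 0)
    (q1 : v 0 + v 3 + v 4 + v 5 = 0) (q2 : v 1 + v 3 + v 4 + v 6 = 0) (q3 : v 2 + v 3 + v 5 + v 6 = 0)
    (hv5 : ∀ i, (5 : ℤ) ∣ v i - s i) (hv4 : ∀ i, (4 : ℤ) ∣ v i - tt i) (hvs : ∑ i, v i * v i ≤ 300) : False := sorry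

theorem Q3 {w : G3} (hd : CTwoTab.Co3.Data G3 Spor.M12 Z w) : ∃ y a b : G3, orderOf y = 5 ∧ orderOf a = 2 ∧ orderOf b = 2 ∧
    a ≠ b ∧ a * b = b * a ∧ a * y = y * a ∧ b * y = y * b ∧ IsConj w a ∧ IsConj w b ∧ IsConj w (a * b) ∧
    IsConj (a * y) (b * y) ∧ IsConj (a * y) (a * b * y) ∧
    (∀ k : ℕ, ¬ 5 ∣ k → ∃ g : G3, g * a = a * g ∧ g * y * g⁻¹ = y ^ k) ∧
    Nat.card ↥(centralizer ({y} : Set G3)) ≤ 300 := sorry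

/-- degrees -/
def dd : Fin 4 → ℕ := ![16, 16, 144, 176]

/-- signs -/
def ee : Fin 4 → ℤ := ![1, 1, 1, -1]

theorem Q4 {H : Type} [Group H] [Fintype H] (e : H ≃* Spor.M12) {M : Ideal AlgInt} (hM : IsPModular 2 M)
    {β : Set (IrrCharacter H)} (hβ : IsPBlock M β) {V : Subgroup H} (hV : IsDefectGroup 2 M β V)
    (hc : Nat.card ↥V = 4) (hx : ∀ v ∈ V, v * v = 1) :
    ∃ ψ : Fin 4 → IrrCharacter H, Function.Injective ψ ∧ β = Set.range ψ ∧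
      (∀ i, charDegree (ψ i : H → ℂ) = dd i) ∧
      (∀ i j, rg 2 (ψ i : H → ℂ) (ψ j : H → ℂ) = (if i = j then 1 else 0) - (ee i : ℂ) * (ee j : ℂ) / 4) ∧
      (∀ φ : IrrCharacter H, charDegree (φ : H → ℂ) = 16 → φ ∈ β) := sorry

theorem Q4five {H : Type} [Group H] [Fintype H] (e : H ≃* Spor.M12) (ψ : IrrCharacter H) (y : H) (hy : orderOf y = 5) :
    (charDegree (ψ : H → ℂ) = 16 → (ψ : H → ℂ) y = 1) ∧ (charDegree (ψ : H → ℂ) = 144 → (ψ : H → ℂ) y = -1) ∧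
    (charDegree (ψ : H → ℂ) = 176 → (ψ : H → ℂ) y = 1) := sorry

theorem Q5a {w : G3} (hd : CTwoTab.Co3.Data G3 Spor.M12 Z w) (χ : IrrCharacter G3) (r : ℤ)
    (hr : (χ : G3 → ℂ) w = (r : ℂ)) :
    ∃ k : ℤ, k * charDegree (χ : G3 → ℂ) = 2608200 * r ∧ (11 : ℤ) ∣ (k * k - 1) * charDegree (χ : G3 → ℂ) := sorry

theorem Q5b (χ : IrrCharacter G3) : (23 : ℤ) ∣ charDegree (χ : G3 → ℂ) ∨
    ∃ e : ℤ, (e = 1 ∨ e = -1 ∨ e = 11 ∨ e = -11) ∧ (23 : ℤ) ∣ charDegree (χ : G3 → ℂ) - e := sorry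

end Cfsg.Agent.H645.KKL.Stub
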